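/- Sets of `{2,p}`-transpositions containing a four-group: the clique case.  Owner: helper3. -/
import Cfsg.Agent.FT.Cons.PT1

set_option autoImplicit false
set_option linter.unusedSectionVars false

namespace Cfsg.Agent.FT.Cons

open Subgroup Cfsg.Agent.Lib.Core Cfsg.Agent.Lib.Invol MulAction
open scoped Cfsg.Agent.Lib.Glaub commutatorElement

variable {G : Type*} [Group G] [Finite G] {p : ℕ} {D : Set G} {a b d e x y y' z w g s u : G}
  {Ω : Type*} [MulAction G Ω] {α β γ ω ω' : Ω}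

theorem conj_smul_fix (h : a • ω = ω) (g : G) : (g * a * g⁻¹) • g • ω = g • ω := by
  rw [mul_smul, mul_smul, inv_smul_smul, h]

/-- the members of `D` fall into commuting blocks indexed by `Ω` -/
structure Clq (p : ℕ) (D : Set G) (Ω : Type*) [MulAction G Ω] : Prop extends PT p D where
  ex : ∀ {a}, a ∈ D → ∃ ω : Ω, a • ω = ω
  iff : ∀ {a b} {ω : Ω}, a ∈ D → b ∈ D → a • ω = ω → (b • ω = ω ↔ Commute a b)
  uniq : ∀ {a} {ω ω' : Ω}, a ∈ D → a • ω = ω → a • ω' = ω' → ω = ω'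
  four : ∀ ω : Ω, ∃ a ∈ D, ∃ b ∈ D, a * b ∈ D ∧ a • ω = ω
  gen : ∀ {a b w}, a ∈ D → b ∈ D → a * b ∈ D → w ∈ D → ¬ Commute a w →
    ∀ K : Subgroup G, a ∈ K → b ∈ K → w ∈ K → K = ⊤
  center : ∀ c : G, (∀ g, g * c = c * g) → c = 1
  O2 : ∀ N : Subgroup G, N.Normal → IsPGroup 2 N → N = ⊥
  two : ∀ ω : Ω, ∃ ω', ω ≠ ω'

namespace Clq
variable (h : Clq p D Ω)
include h

theorem comm (ha : a ∈ D) (hb : b ∈ D) (h1 : a • ω = ω) (h2 : b • ω = ω) : Commute a b :=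
  (h.iff ha hb h1).mp h2
theorem not_comm (ha : a ∈ D) (hb : b ∈ D) (h1 : a • ω = ω) (h2 : b • ω' = ω') (hn : ω ≠ ω') :
    ¬ Commute a b := fun hc => hn (h.uniq hb ((h.iff ha hb h1).mpr hc) h2)
theorem four' (ω : Ω) : ∃ a ∈ D, ∃ b ∈ D, a * b ∈ D ∧ a • ω = ω ∧ b • ω = ω ∧ a ≠ b := by
  obtain ⟨a, ha, b, hb, hab, h1⟩ := h.four ω
  exact ⟨a, ha, b, hb, hab, h1, (h.iff ha hb h1).mpr (h.comm_of_mem ha hb hab),
    fun e => h.ne_one hab (e ▸ h.sq ha)⟩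
theorem cent {c : G} (ha : a ∈ D) (hb : b ∈ D) (hab : a * b ∈ D) (hw : w ∈ D) (hn : ¬ Commute a w)
    (h1 : Commute a c) (h2 : Commute b c) (h3 : Commute w c) : c = 1 :=
  h.center c fun g => mem_C1.mp (h.gen ha hb hab hw hn (C1 c) (mem_C1.mpr h1) (mem_C1.mpr h2) (mem_C1.mpr h3) ▸ mem_top g)
theorem cent' {c : G} (hn : α ≠ β) (hw : w ∈ D) (h1 : w • β = β) (h2 : Commute w c)
    (h3 : ∀ a ∈ D, a • α = α → Commute a c) : c = 1 := by
  obtain ⟨a, ha, b, hb, hab, h4, h5, -⟩ := h.four' α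
  exact h.cent ha hb hab hw (h.not_comm ha hw h4 h1 hn) (h3 a ha h4) (h3 b hb h5) h2
theorem fix_of_comm (ha : a ∈ D) (h1 : a • ω = ω) (hc : Commute a (g * a * g⁻¹)) : g • ω = ω :=
  h.uniq (h.conj ha g) (conj_smul_fix h1 g) ((h.iff ha (h.conj ha g) h1).mpr hc)
theorem conj_fix (h1 : a • ω = ω) (h2 : g • ω = ω) : (g * a * g⁻¹) • ω = ω := by
  simpa only [h2] using conj_smul_fix h1 g
theorem swap (hy : y ∈ D) (h1 : y • ω = ω') : y • ω' = ω := by rw [← h1, smul_smul, h.sq hy, one_smul]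

omit h in
/-- products of two members of the block `α` which fix `β` -/
def T (D : Set G) (α β : Ω) : Set G := {g | ∃ a ∈ D, ∃ b ∈ D, a • α = α ∧ b • α = α ∧ g = a * b ∧ g • β = β}

theorem T_sq (hg : g ∈ T D α β) : g * g = 1 := by
  obtain ⟨a, ha, b, hb, h1, h2, rfl, -⟩ := hg
  exact h.mul_sq ha hb (h.comm ha hb h1 h2)
theorem T_comm (hg : g ∈ T D α β) (hw : w ∈ D) (h1 : w • α = α) : Commute w g := by
  obtain ⟨a, ha, b, hb, h2, h3, rfl, -⟩ := hg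
  exact (h.comm hw ha h1 h2).mul_right (h.comm hw hb h1 h3)
theorem T_fix (hg : g ∈ T D α β) : g • α = α := by
  obtain ⟨a, ha, b, hb, h2, h3, rfl, -⟩ := hg
  rw [mul_smul, h3, h2]
theorem T_conj (hg : g ∈ T D α β) (h1 : s • α = α) (h2 : s • β = β) : s * g * s⁻¹ ∈ T D α β := by
  obtain ⟨a, ha, b, hb, h3, h4, rfl, h5⟩ := hg
  exact ⟨_, h.conj ha s, _, h.conj hb s, h.conj_fix h3 h1, h.conj_fix h4 h1, by group, h.conj_fix h5 h2⟩
theorem T_comm_T (hn : α ≠ β) (hg : g ∈ T D α β) (hs : s ∈ T D β α) : Commute g s := by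
  have hg' := h.T_conj hg hs.choose_spec.2.choose_spec.2.2.2.2 (h.T_fix hs)
  have hs' := h.T_conj hs hg.choose_spec.2.choose_spec.2.2.2.2 (h.T_fix hg)
  obtain ⟨w, hw, -, -, -, h1⟩ := h.four β
  have : g * s * g⁻¹ * s⁻¹ = 1 := h.cent' hn hw h1 ((h.T_comm hs' hw h1).mul_right (h.T_comm hs hw h1).inv_right)
    fun a ha h2 => by
      rw [show g * s * g⁻¹ * s⁻¹ = g * (s * g * s⁻¹)⁻¹ by group]
      exact (h.T_comm hg ha h2).mul_right (h.T_comm hg' ha h2).inv_right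
  rw [mul_inv_eq_one, mul_inv_eq_iff_eq_mul] at this
  exact this
theorem T_step (hg : g ∈ T D α β) (hz : z ∈ D) (h1 : z • β = β) : z * g * z⁻¹ * g ∈ T D β α := by
  have h2 := h.T_sq hg
  have hi : g⁻¹ = g := inv_eq_of_mul_eq_one_right h2
  obtain ⟨a, ha, b, hb, h3, h4, e, h5⟩ := hg
  have e1 : z * g * z⁻¹ * g = z * (g * z * g⁻¹) := by rw [hi, h.inv hz]; simp only [mul_assoc]
  refine ⟨z, hz, _, h.conj hz g, h1, h.conj_fix h1 h5, e1, ?_⟩
  rcases eq_or_ne a b with rfl | hne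
  · rw [e, h.sq ha]; simp
  have h6 := h.mul_sq hz (h.conj hz g) (h.comm hz (h.conj hz g) h1 (h.conj_fix h1 h5))
  rw [← e1] at h6
  set s := z * g * z⁻¹ * g with hs
  have h7 : s * g * s⁻¹ = g := by
    have h8 : g * s * g = s⁻¹ := by
      rw [hs, h.inv hz]; simp only [mul_inv_rev, hi, h.inv hz, mul_assoc, h2, mul_one]
    rw [inv_eq_of_mul_eq_one_right h6] at h8 ⊢
    calc s * g * s = s * (g * s * g) * g := by simp only [mul_assoc, h2, mul_one]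
      _ = g := by rw [h8, h6, one_mul]
  refine h.fix_of_comm ha h3 (h.comm_of_mul ha (h.conj ha s) (h.conj hb s) (by simpa using hne) ?_)
  rw [show s * a * s⁻¹ * (s * b * s⁻¹) = s * (a * b) * s⁻¹ by group, ← e, h7, e]
  exact (Commute.refl a).mul_right (h.comm ha hb h3 h4)
theorem T_norm (hz : z ∈ D) (h1 : z • β = β) : z ∈ 𝐍(closure (T D α β ∪ T D β α)) := by
  refine mem_normalizer_of_conj_mem fun w hw => ?_
  induction hw using closure_induction with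
  | mem g hg =>
    rcases hg with hg | hg
    · have := mul_mem (subset_closure (Or.inr (h.T_step hg hz h1)) : _ ∈ closure (T D α β ∪ T D β α))
        (inv_mem (subset_closure (Or.inl hg)))
      simpa using this
    · rw [(h.T_comm hg hz h1).eq, mul_inv_cancel_right]; exact subset_closure (Or.inr hg)
  | one => simp
  | mul x y _ _ hx hy => simpa [mul_assoc] using mul_mem hx hy
  | inv x _ hx => simpa [mul_assoc] using inv_mem hx
theorem T_eq_one (hn : α ≠ β) (hg : g ∈ T D α β) : g = 1 := by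
  have hTT : ∀ {α β : Ω} {g s}, g ∈ T D α β → s ∈ T D α β → Commute g s := fun {α β g s} hg hs => by
    obtain ⟨a, ha, b, hb, h3, h4, rfl, -⟩ := hg
    exact (h.T_comm hs ha h3).mul_left (h.T_comm hs hb h4)
  have hc : ∀ g ∈ T D α β ∪ T D β α, ∀ s ∈ T D α β ∪ T D β α, g * s = s * g := by
    rintro g (hg | hg) s (hs | hs)
    exacts [hTT hg hs, h.T_comm_T hn hg hs, (h.T_comm_T hn hs hg).symm, hTT hg hs]
  have hW := isMulCommutative_closure hc
  have h2 : IsPGroup 2 (closure (T D α β ∪ T D β α)) := isPGroup_of_forall_pow fun w hw => ⟨1, by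
    rw [pow_one, sq]
    induction hw using closure_induction with
    | mem g hg => exact hg.elim h.T_sq h.T_sq
    | one => simp
    | mul x y hx hy e1 e2 =>
      rw [mul_assoc, ← mul_assoc y, mul_comm_of_isComm hW hy hx, mul_assoc, e2, mul_one, e1]
    | inv x _ hx => rw [← mul_inv_rev, hx, inv_one]⟩
  obtain ⟨a, ha, b, hb, hab, h4, h5, -⟩ := h.four' α
  obtain ⟨w, hw, -, -, -, h1⟩ := h.four β
  have h3 := h.gen ha hb hab hw (h.not_comm ha hw h4 h1 hn) 𝐍(closure (T D α β ∪ T D β α))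
    (Set.union_comm _ _ ▸ h.T_norm ha h4) (Set.union_comm _ _ ▸ h.T_norm hb h5) (h.T_norm hw h1)
  exact mem_bot.mp (h.O2 _ (normal_of_le_normalizer_top h3.ge) h2 ▸ subset_closure (Or.inl hg))

theorem mul_memD (ha : a ∈ D) (hb : b ∈ D) (hne : a ≠ b) (hc : Commute a b) : a * b ∈ D := by
  obtain ⟨α, h1⟩ := h.ex ha
  have h2 := (h.iff ha hb h1).mpr hc
  obtain ⟨β, hn⟩ := h.two α
  obtain ⟨z, hz, -, -, -, h3⟩ := h.four β
  have ht := h.mul_sq ha hb hc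
  by_cases hzt : Commute z (a * b * z * (a * b))
  · have := h.T_eq_one hn ⟨a, ha, b, hb, h1, h2, rfl, h.fix_of_comm hz h3 (by
      rwa [inv_eq_of_mul_eq_one_right ht])⟩
    exact absurd (by rw [← h.inv ha]; exact inv_eq_of_mul_eq_one_right this) hne
  obtain ⟨c, h4, h5, h6, h7⟩ := h.exists_central hz ht hzt
  have h8 : (a * b * c) • α = α := (h.iff ha h7 h1).mpr
    (h.comm_of_mul h7 ha hb hne ((Commute.refl _).mul_left h6)).symm
  have : c = 1 := h.cent' hn hz h3 h5.symm fun a' ha' h9 => by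
    rw [show c = a * b * (a * b * c) by rw [← mul_assoc, ht, one_mul]]
    exact ((h.comm ha' ha h9 h1).mul_right (h.comm ha' hb h9 h2)).mul_right (h.comm ha' h7 h9 h8)
  simpa [this] using h7

theorem mid (ha : a ∈ D) (hb : b ∈ D) (h1 : a • ω = ω) (h2 : b • ω' = ω') (hn : ω ≠ ω') :
    ∃ y ∈ D, y * a * y = b ∧ y • ω = ω' := by
  obtain ⟨y, hy, e⟩ := h.exists_mid ha hb (h.not_comm ha hb h1 h2 hn)
  exact ⟨y, hy, e, h.uniq hb (by simpa only [h.inv hy, e] using conj_smul_fix h1 y) h2⟩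
theorem exists_rot (hn : ω ≠ ω') (hu : u ∈ D) (h1 : u • ω = ω') : ∃ y ∈ D, y • ω = ω' ∧ ¬ Commute u y := by
  have key : ∀ y ∈ D, y • ω = ω' → u ≠ y → ¬ Commute u y := fun y hy h2 hne hc =>
    hn (h.uniq (h.mul_memD hu hy hne hc) (by rw [mul_smul, h2, h.swap hu h1]) (by rw [mul_smul, h.swap hy h2, h1]))
  obtain ⟨a, ha, -, -, -, h3⟩ := h.four ω
  obtain ⟨b, hb, b', hb', -, h4, h5, hne⟩ := h.four' ω'
  obtain ⟨y, hy, e, h6⟩ := h.mid ha hb h3 h4 hn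
  obtain ⟨y', hy', e', h7⟩ := h.mid ha hb' h3 h5 hn
  by_cases h8 : u = y
  · exact ⟨y', hy', h7, key y' hy' h7 fun e1 => hne (by rw [← e, ← e', ← h8, e1])⟩
  · exact ⟨y, hy, h6, key y hy h6 h8⟩
theorem exists_swap (hn : ω ≠ ω') : ∃ u ∈ D, u • ω = ω' := by
  obtain ⟨a, ha, -, -, -, h3⟩ := h.four ω
  obtain ⟨b, hb, -, -, -, h4⟩ := h.four ω'
  obtain ⟨y, hy, -, h6⟩ := h.mid ha hb h3 h4 hn
  exact ⟨y, hy, h6⟩
theorem no_cent (hy : y ∈ D) (hy' : y' ∈ D) (hn : ¬ Commute y y') (ha : a ∈ D) : ¬ Commute a (y * y') := by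
  intro hc
  have hne : y ≠ y' := fun e => hn (e ▸ Commute.refl y)
  obtain ⟨ω, h1⟩ := h.ex ha
  exact hn (h.comm hy hy' ((h.iff ha hy h1).mpr (h.comm_of_mul ha hy hy' hne hc))
    ((h.iff ha hy' h1).mpr (h.comm_of_mul' ha hy hy' hne hc)))

theorem fix_step (hs : s * s = 1) (h1 : s • ω = ω) (ha : a ∈ D) (h2 : a • ω = ω) (hn : ¬ Commute a s) :
    a * (s * a * s⁻¹) ∈ D ∧ (a * (s * a * s⁻¹)) • ω = ω ∧ Commute (a * (s * a * s⁻¹)) s := by
  have hc := h.comm ha (h.conj ha s) h2 (h.conj_fix h2 h1)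
  refine ⟨h.mul_memD ha (h.conj ha s) (fun e => hn ?_) hc, by rw [mul_smul, h.conj_fix h2 h1, h2], ?_⟩
  · rw [eq_comm, mul_inv_eq_iff_eq_mul] at e; exact e.symm
  · have hi : s⁻¹ = s := inv_eq_of_mul_eq_one_right hs
    rw [Commute, SemiconjBy]
    conv_rhs => rw [hc.eq]
    rw [hi]; simp only [← mul_assoc, hs, one_mul]; simp only [mul_assoc, hs, mul_one]
theorem exists_fix (hs : s * s = 1) (h1 : s • ω = ω) : ∃ a ∈ D, a • ω = ω ∧ Commute a s := by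
  obtain ⟨a, ha, -, -, -, h3⟩ := h.four ω
  by_cases hn : Commute a s
  exacts [⟨a, ha, h3, hn⟩, ⟨_, h.fix_step hs h1 ha h3 hn⟩]
theorem eq_one_of_fix (hn : ω ≠ ω') (hs : s * s = 1) (h1 : s • ω = ω) (h2 : s • ω' = ω') : s = 1 := by
  by_contra hs1
  obtain ⟨a, ha, h3, h4⟩ := h.exists_fix hs h1
  obtain ⟨w, hw, h5, h6⟩ := h.exists_fix hs h2
  have k1 : ∀ b ∈ D, b • ω = ω → Commute b s → a = b := fun b hb h7 h8 => by
    by_contra hne
    exact hs1 (h.cent ha hb (h.mul_memD ha hb hne (h.comm ha hb h3 h7)) hw (h.not_comm ha hw h3 h5 hn) h4 h8 h6)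
  have k2 : ∀ b ∈ D, b • ω = ω → a ≠ b → s * b * s⁻¹ = b * a := fun b hb h7 hne => by
    obtain ⟨h8, h9, h10⟩ := h.fix_step hs h1 hb h7 fun hc => hne (k1 b hb h7 hc)
    rw [k1 _ h8 h9 h10, h.sq' hb]
  have k3 : ∀ b ∈ D, ∀ b' ∈ D, b • ω = ω → b' • ω = ω → a ≠ b → a ≠ b' → b ≠ b' → a = b * b' :=
    fun b hb b' hb' h7 h8 n1 n2 n3 => k1 _ (h.mul_memD hb hb' n3 (h.comm hb hb' h7 h8))
      (by rw [mul_smul, h8, h7]) (by
        have : s * (b * b') * s⁻¹ = b * b' := by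
          rw [show s * (b * b') * s⁻¹ = s * b * s⁻¹ * (s * b' * s⁻¹) by group, k2 b hb h7 n1, k2 b' hb' h8 n2,
            ← (h.comm ha hb' h3 h8).eq, mul_assoc, h.sq' ha]
        rw [mul_inv_eq_iff_eq_mul] at this; exact this.symm)
  obtain ⟨u, hu, h7⟩ := h.exists_swap hn
  obtain ⟨y, hy, h8, hc⟩ := h.exists_rot hn hu h7
  have hr : ∀ i : ℕ, (u * y) ^ i • ω = ω := fun i =>
    pow_mem (show u * y ∈ stabilizer G ω by rw [mem_stabilizer_iff, mul_smul, h8, h.swap hu h7]) i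
  have k4 : ∀ i j : ℕ, 0 < j → j ≤ 4 →
      (u * y) ^ i * a * ((u * y) ^ i)⁻¹ ≠ (u * y) ^ (i + j) * a * ((u * y) ^ (i + j))⁻¹ := fun i j h0 hj e => by
    refine h.no_cent hu hy hc ha (commute_of_pow (j := j) ?_ (by rw [h.ord_mul hu hy hc]; exact h.cop h0 hj))
    have : a = (u * y) ^ j * a * ((u * y) ^ j)⁻¹ := by
      calc a = ((u * y) ^ i)⁻¹ * ((u * y) ^ i * a * ((u * y) ^ i)⁻¹) * (u * y) ^ i := by group
        _ = _ := by rw [e]; group
    rw [eq_comm, mul_inv_eq_iff_eq_mul] at this; exact this.symm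
  have k5 : ∀ j : ℕ, 0 < j → j ≤ 4 → a ≠ (u * y) ^ j * a * ((u * y) ^ j)⁻¹ := fun j h0 hj => by
    simpa using k4 0 j h0 hj
  have e1 := k3 _ (h.conj ha _) _ (h.conj ha _) (h.conj_fix h3 (hr 1)) (h.conj_fix h3 (hr 2))
    (k5 1 (by norm_num) (by norm_num)) (k5 2 (by norm_num) (by norm_num)) (k4 1 1 (by norm_num) (by norm_num))
  have e2 := k3 _ (h.conj ha _) _ (h.conj ha _) (h.conj_fix h3 (hr 1)) (h.conj_fix h3 (hr 3))
    (k5 1 (by norm_num) (by norm_num)) (k5 3 (by norm_num) (by norm_num)) (k4 1 2 (by norm_num) (by norm_num))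
  exact k4 2 1 (by norm_num) (by norm_num) (mul_left_cancel (e1.symm.trans e2))

end Clq

end Cfsg.Agent.FT.Cons
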