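/- Sets of `{2,p}`-transpositions containing a four-group: the contradiction.  Owner: helper3. -/
import Cfsg.Agent.FT.Cons.PT2

set_option autoImplicit false
set_option linter.unusedSectionVars false

namespace Cfsg.Agent.FT.Cons

open Subgroup Cfsg.Agent.Lib.Core Cfsg.Agent.Lib.Invol MulAction
open scoped Cfsg.Agent.Lib.Glaub commutatorElement

variable {G : Type*} [Group G] [Finite G] {p : ℕ} {D : Set G} {a b d e x y y' z w g s u : G}
  {Ω : Type*} [MulAction G Ω] {α β γ ω ω' : Ω} {P : Subgroup G}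

namespace Clq
variable (h : Clq p D Ω)
include h

theorem odd_stab (hn : ω ≠ ω') : ¬ 2 ∣ Nat.card ↥(stabilizer G ω ⊓ stabilizer G ω') := fun hd => by
  obtain ⟨s, hs, ho⟩ := exists_orderOf_eq_prime Nat.prime_two hd
  exact ne_one_of_orderOf_two ho (h.eq_one_of_fix hn (mul_self_of_orderOf_two ho) hs.1 hs.2)

theorem exists_norm [Fact p.Prime] (hn : ω ≠ ω') (hP : IsSyl p P (stabilizer G ω ⊓ stabilizer G ω')) :
    ∃ u ∈ D, u • ω = ω' ∧ u ∈ 𝐍(P) ∧ u ∉ 𝐂(P) := by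
  obtain ⟨u, hu, h1⟩ := h.exists_swap hn
  have hN : zpowers u ≤ 𝐍(stabilizer G ω ⊓ stabilizer G ω') :=
    zpowers_le.mpr (mem_normalizer_of_conj_mem fun g hg => mem_inf.mpr ⟨by
      simpa only [mem_stabilizer_iff, h.swap hu h1] using conj_smul_fix (mem_stabilizer_iff.mp hg.2) u, by
      simpa only [mem_stabilizer_iff, h1] using conj_smul_fix (mem_stabilizer_iff.mp hg.1) u⟩)
  obtain ⟨Q, hQ, hQn⟩ := (coprimeAct_of_isPGroup_left (isPGroup_zpowers_of_involution (h.ord hu))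
    (h.odd_stab hn) hN).exists_isSyl p
  obtain ⟨k, hk, e⟩ := hQ.exists_conj hP
  have hu' := h.conj hu k
  have h2 : (k * u * k⁻¹) • ω = ω' := by
    rw [mul_smul, mul_smul, mem_stabilizer_iff.mp (inv_mem hk.1), h1, mem_stabilizer_iff.mp hk.2]
  refine ⟨_, hu', h2, ?_, fun hc => ?_⟩
  · rw [← e, ← cj_norm]; exact conj_mem_cj.mpr (hQn (mem_zpowers u))
  generalize k * u * k⁻¹ = v at hu' h2 hc
  obtain ⟨y, hy, h3, h4⟩ := h.exists_rot hn hu' h2
  obtain ⟨m, -, hm⟩ := hP.exists_conj_le (isPGroup_zpowers_of_orderOf (k := 1) (by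
    rw [h.ord_mul hu' hy h4, pow_one])) (zpowers_le.mpr (mem_inf.mpr ⟨by
      rw [mem_stabilizer_iff, mul_smul, h3, h.swap hu' h2], by
      rw [mem_stabilizer_iff, mul_smul, h.swap hy h3, h2]⟩))
  have := commute_conj (a := v) (mem_cent_iff.mp hc _ (hm (conj_mem_cj.mpr (mem_zpowers _)))).symm m⁻¹
  exact h.no_cent hu' hy h4 (h.conj hu' m⁻¹) (by simpa [mul_assoc] using this)

theorem comm_of_fix [Fact p.Prime] (hP : IsPGroup p P) (hu : u ∈ D) (hN : u ∈ 𝐍(P)) (h1 : u • ω = ω)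
    (hg : g ∈ P) (h2 : g • ω = ω) : Commute g u := by
  have hm : g * u * g⁻¹ * u ∈ P := by
    have := P.mul_mem hg (conj_mem_of_mem_normalizer hN (P.inv_mem hg))
    simpa only [h.inv hu, mul_assoc] using this
  have h3 := h.mul_sq (h.conj hu g) hu (h.comm (h.conj hu g) hu (h.conj_fix h1 h2) h1)
  have h4 : g * u * g⁻¹ * u ∈ zpowers (g * u * g⁻¹ * u) ⊓ P := ⟨mem_zpowers _, hm⟩
  rw [inf_comm, inf_eq_bot_of_isPGroup_of_not_dvd hP (fun hd => ?_), mem_bot] at h4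
  · rw [mul_eq_one_iff_eq_inv, h.inv hu, mul_inv_eq_iff_eq_mul] at h4
    exact h4
  · rw [Nat.card_zpowers] at hd
    have := Nat.le_of_dvd two_pos (hd.trans (orderOf_dvd_of_pow_eq_one (n := 2) (by rwa [sq])))
    have := h.five
    omega

/-- the block as a subgroup -/
def blk (ω : Ω) : Subgroup G where
  carrier := {a | a = 1 ∨ (a ∈ D ∧ a • ω = ω)}
  one_mem' := Or.inl rfl
  mul_mem' := by
    rintro a b (rfl | ⟨ha, h1⟩) (rfl | ⟨hb, h2⟩)
    · simp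
    · exact Or.inr ⟨by simpa, by simpa⟩
    · exact Or.inr ⟨by simpa, by simpa⟩
    · rcases eq_or_ne a b with rfl | hne
      · exact Or.inl (h.sq ha)
      · exact Or.inr ⟨h.mul_memD ha hb hne (h.comm ha hb h1 h2), by rw [mul_smul, h2, h1]⟩
  inv_mem' := by
    rintro a (rfl | ⟨ha, h1⟩)
    · simp
    · rw [h.inv ha]; exact Or.inr ⟨ha, h1⟩

theorem odd_of_norm [Fact p.Prime] (hP : IsPGroup p P) (hu : u ∈ D) (hN : u ∈ 𝐍(P)) (hC : u ∉ 𝐂(P))
    (hy : y ∈ D) (hN' : y ∈ 𝐍(P)) : Odd (orderOf (u * y)) := by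
  rcases eq_or_ne u y with rfl | hne
  · rw [h.sq hu]; simp
  by_cases hc : Commute u y
  swap
  · rw [h.ord_mul hu hy hc]; exact h.odd
  obtain ⟨ω, h1⟩ := h.ex hu
  have h2 : IsPGroup 2 (h.blk ω) := isPGroup_of_forall_pow fun a ha => ⟨1, by
    rcases ha with rfl | ha
    exacts [one_pow _, by rw [pow_one, sq, h.sq ha.1]]⟩
  refine absurd (le_C1_iff.mp (le_of_centralizers (A := h.blk ω ⊓ 𝐍(P)) (isComm_iff_le_cent.mpr ?_) (fun hcy => hne ?_)
    inf_le_right ?_ ?_)) hC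
  · rintro a ⟨rfl | ha, -⟩
    · exact one_mem _
    · rintro b ⟨rfl | hb, -⟩
      exacts [by simp, h.comm hb.1 ha.1 hb.2 ha.2]
  · exact involution_unique_of_isCyclic hcy ⟨Or.inr ⟨hu, h1⟩, hN⟩ ⟨Or.inr ⟨hy, (h.iff hu hy h1).mpr hc⟩, hN'⟩
      (h.ord hu) (h.ord hy)
  · exact IsPGroup.coprime_card_of_ne 2 p (by have := h.five; omega) _ _ h2.to_inf_left hP
  · rintro a ⟨rfl | ha, -⟩ h3 g ⟨hg, hga⟩
    · exact absurd rfl h3
    · exact mem_C1.mpr (h.comm_of_fix hP hu hN h1 hg (h.fix_of_comm ha.1 ha.2 (by rw [mem_C1_iff_conj.mp hga])))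

theorem not_three [Fact p.Prime] (hP : IsPGroup p P) (hα : P ≤ stabilizer G α) {u₁ u₂ u₃ : G} (h1 : u₁ ∈ D)
    (h2 : u₂ ∈ D) (h3 : u₃ ∈ D) (n1 : u₁ ∈ 𝐍(P)) (n2 : u₂ ∈ 𝐍(P)) (n3 : u₃ ∈ 𝐍(P)) (hC : u₁ ∉ 𝐂(P))
    (e : (u₃ * u₂ * u₁) • α = α) : False := by
  have hZ := zstar_amb' n1 (h.sq h1) fun g hg =>
    h.odd_of_norm hP h1 n1 hC (h.conj h1 g) (mul_mem (mul_mem hg n1) (inv_mem hg))
  have hO : ∀ y ∈ D, y ∈ 𝐍(P) → u₁ * y ∈ OppOf 2 𝐍(P) := fun y hy hn => by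
    obtain ⟨k, hk⟩ := exists_pow_conj_of_odd (h.sq h1) (h.sq hy) (h.odd_of_norm hP h1 n1 hC hy hn)
    have := hZ _ (pow_mem (mul_mem n1 hn) k)
    rw [commutatorElement_def, h.inv h1] at this
    rw [← hk]; simpa only [mul_assoc] using this
  have hodd : ∀ g ∈ OppOf 2 𝐍(P), Odd (orderOf g) := fun g hg =>
    Nat.odd_iff.mpr (Nat.two_dvd_ne_zero.mp fun hd => OppOf_not_dvd _ (hd.trans (orderOf_dvd_card hg)))
  set w := u₃ * u₂ * u₁ with hw
  have h4 : w * u₁ ∈ OppOf 2 𝐍(P) := by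
    have := mul_mem (inv_mem (hO _ h3 n3)) (hO _ h2 n2)
    simpa only [hw, mul_inv_rev, h.inv h3, h.inv h1, mul_assoc, h.sq' h1, h.sq h1, mul_one] using this
  have h5 : u₁ * w ∈ OppOf 2 𝐍(P) := by
    simpa only [mul_assoc, mul_inv_cancel, mul_one] using (OppOf_nrm 2 𝐍(P)).conj_mem n1 h4
  have h6 : w ^ 2 ∈ OppOf 2 𝐍(P) := by simpa only [mul_assoc, h.sq' h1, sq] using mul_mem h4 h5
  obtain ⟨j, hj⟩ := hodd _ h6
  have h7 : w ^ (2 * j + 1) * w ^ (2 * j + 1) = 1 := by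
    rw [← pow_add, ← two_mul, pow_mul, ← hj, pow_orderOf_eq_one]
  have h8 : u₁ * w ^ (2 * j + 1) ∈ OppOf 2 𝐍(P) := by
    rw [pow_succ', ← mul_assoc, pow_mul]; exact mul_mem h5 (pow_mem h6 j)
  obtain ⟨k, hk⟩ := exists_pow_conj_of_odd (h.sq h1) h7 (hodd _ h8)
  have hkN := pow_mem (OppOf_le _ h8) k
  have hD := hk ▸ h.conj h1 ((u₁ * w ^ (2 * j + 1)) ^ k)
  have h9 : w ^ (2 * j + 1) ∈ 𝐂(P) := mem_cent_iff.mpr fun g hg =>
    h.comm_of_fix hP hD (pow_mem (mul_mem (mul_mem n3 n2) n1) _)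
      (pow_mem (mem_stabilizer_iff.mpr e) _) hg (hα hg)
  have := (cent_nrm_norm P).conj_mem (inv_mem hkN) h9
  generalize (u₁ * w ^ (2 * j + 1)) ^ k = m at hk this
  rw [← hk] at this
  exact hC (by simpa [mul_assoc] using this)

theorem not_dvd [Finite Ω] (ω : Ω) : ¬ p ∣ Nat.card Ω := by
  have := Fact.mk h.prime
  obtain ⟨ω', hn⟩ := h.two ω
  obtain ⟨⟨α, β⟩, hne, hmax⟩ := Set.exists_max_image {q : Ω × Ω | q.1 ≠ q.2}
    (fun q => (Nat.card ↥(stabilizer G q.1 ⊓ stabilizer G q.2)).factorization p) (Set.toFinite _) ⟨(ω, ω'), hn⟩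
  obtain ⟨P, hP⟩ := exists_isSyl p (stabilizer G α ⊓ stabilizer G β)
  have key : ∀ γ δ : Ω, γ ≠ δ → P ≤ stabilizer G γ → P ≤ stabilizer G δ →
      ∃ u ∈ D, u • γ = δ ∧ u ∈ 𝐍(P) ∧ u ∉ 𝐂(P) := fun γ δ hn h1 h2 => by
    obtain ⟨Q, hQ⟩ := exists_isSyl p (stabilizer G γ ⊓ stabilizer G δ)
    refine h.exists_norm hn (hQ.of_card_le hP.isPGroup (le_inf h1 h2) ?_)
    rw [hQ.card_eq, hP.card_eq]
    exact Nat.pow_le_pow_right h.prime.pos (hmax (γ, δ) hn)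
  have hα := hP.le.trans inf_le_left
  have hβ := hP.le.trans inf_le_right
  have hfix : fixedPoints P Ω = {α, β} := by
    refine Set.Subset.antisymm (fun γ hγ => ?_) ?_
    · by_contra hc
      simp only [Set.mem_insert_iff, Set.mem_singleton_iff, not_or] at hc
      have hγ' : P ≤ stabilizer G γ := fun g hg => hγ ⟨g, hg⟩
      obtain ⟨u₁, h1, e1, n1, c1⟩ := key α β hne hα hβ
      obtain ⟨u₂, h2, e2, n2, -⟩ := key β γ (Ne.symm hc.2) hβ hγ'
      obtain ⟨u₃, h3, e3, n3, -⟩ := key γ α hc.1 hγ' hα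
      exact h.not_three hP.isPGroup hα h1 h2 h3 n1 n2 n3 c1 (by rw [mul_smul, mul_smul, e1, e2, e3])
    · rintro _ (rfl | rfl)
      exacts [fun g => hα g.2, fun g => hβ g.2]
  have := hP.isPGroup.card_modEq_card_fixedPoints Ω
  rw [hfix, Nat.card_coe_set_eq, Set.ncard_pair hne] at this
  intro hd
  have := Nat.le_of_dvd two_pos ((Nat.ModEq.dvd_iff this dvd_rfl).mp hd)
  have := h.five
  omega

theorem false [Finite Ω] (ω : Ω) : False := by
  have := Fact.mk h.prime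
  choose A hA hA' using fun ω => (h.four ω).imp fun a ha => (⟨ha.1, ha.2.choose_spec.2.2⟩ : a ∈ D ∧ a • ω = ω)
  have hy := hA ω
  have hyω := hA' ω
  generalize A ω = y at hy hyω
  have hfix : ∀ v : {v // v ∈ D ∧ ¬ Commute y v}, ∃ γ : Ω, y • γ = v.1 • γ ∧ y • γ ≠ ω := fun v => by
    obtain ⟨γ, hγ⟩ := (isPGroup_zpowers_of_orderOf (k := 1) (by
      rw [h.ord_mul hy v.2.1 v.2.2, pow_one])).nonempty_fixed_point_of_prime_not_dvd_card Ω (h.not_dvd ω)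
    have e : y • γ = v.1 • γ := by
      have : (y * v.1) • γ = γ := hγ ⟨_, mem_zpowers _⟩
      rw [mul_smul] at this
      exact h.swap hy this
    refine ⟨γ, e, fun e' => v.2.2 ?_⟩
    have e1 : γ = ω := (h.swap hy e').symm.trans hyω
    exact h.comm hy v.2.1 hyω (by rw [e1] at e; rw [← e, hyω])
  choose F hF hF' using hfix
  have hmem : ∀ v : {v // v ∈ D ∧ ¬ Commute y v}, (v.1 * A (F v) * v.1) • y • F v = y • F v := fun v => by
    simpa only [h.inv v.2.1, hF v] using conj_smul_fix (hA' (F v)) v.1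
  have hne : ∀ v : {v // v ∈ D ∧ ¬ Commute y v}, ¬ Commute (A (F v)) v.1 := fun v hc => by
    have e := (h.iff (hA _) v.2.1 (hA' _)).mpr hc
    exact v.2.2 (h.comm hy v.2.1 ((hF v).trans e) e)
  let φ : {v // v ∈ D ∧ ¬ Commute y v} → {v // v ∈ D ∧ ¬ Commute y v} := fun v =>
    ⟨v.1 * A (F v) * v.1, h.conj' (hA _) v.2.1, h.not_comm hy (h.conj' (hA _) v.2.1) hyω (hmem v) (hF' v).symm⟩
  have hinj : Function.Injective φ := fun v v' e => by
    have e1 : v.1 * A (F v) * v.1 = v'.1 * A (F v') * v'.1 := congrArg Subtype.val e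
    have e2 : F v = F v' := smul_left_cancel y (h.uniq (h.conj' (hA _) v.2.1) (hmem v) (e1 ▸ hmem v'))
    exact Subtype.ext (h.eq_of_conj_eq (hA _) v.2.1 v'.2.1 (by rw [e1, e2]) (hne v))
  obtain ⟨γ, hγ⟩ := h.two ω
  have h1 : (y * A γ * y) • y • γ = y • γ := by simpa only [h.inv hy] using conj_smul_fix (hA' γ) y
  obtain ⟨v, hv⟩ := Finite.injective_iff_surjective.mp hinj ⟨y * A γ * y, h.conj' (hA _) hy,
    h.not_comm hy (h.conj' (hA _) hy) hyω h1 fun e => hγ (hyω.symm.trans (h.swap hy e.symm))⟩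
  have e1 : v.1 * A (F v) * v.1 = y * A γ * y := congrArg Subtype.val hv
  have e2 : F v = γ := smul_left_cancel y (h.uniq (h.conj' (hA _) v.2.1) (hmem v) (e1 ▸ h1))
  exact v.2.2 (by rw [h.eq_of_conj_eq (hA _) v.2.1 hy (by rw [e1, e2]) (hne v)])

end Clq

end Cfsg.Agent.FT.Cons
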