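/- Classes of `{2,p}`-transpositions, `p ≥ 5`, have no commuting pairs when `O₂(G) = 1`.  Owner: helper3. -/
import Cfsg.Agent.FT.Cons.PT3

set_option autoImplicit false
set_option linter.unusedSectionVars false

namespace Cfsg.Agent.FT.Cons

open Subgroup Cfsg.Agent.Lib.Core Cfsg.Agent.Lib.Invol MulAction
open scoped Cfsg.Agent.Lib.Glaub commutatorElement

universe u

theorem star_step {G : Type*} [Group G] [Finite G] {p : ℕ} {D : Set G} (h : PT p D) {x d z : G} (hx : x ∈ D)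
    (hd : d ∈ D) (hxd : x * d ∈ D) (hz : z ∈ D) (hn : ¬ Commute x z) (hcls : ∀ a ∈ D, IsConj x a)
    (gen : ∀ {a b w}, a ∈ D → b ∈ D → a * b ∈ D → w ∈ D → ¬ Commute a w →
      ∀ K : Subgroup G, a ∈ K → b ∈ K → w ∈ K → K = ⊤)
    (center : ∀ c : G, (∀ g, g * c = c * g) → c = 1)
    (O2 : ∀ N : Subgroup G, N.Normal → IsPGroup 2 N → N = ⊥) : False := by
  have tr : ∀ {a b w}, a ∈ D → b ∈ D → w ∈ D → Commute b a → Commute b w → Commute a w := by
    intro a b w ha hb hw h1 h2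
    by_contra h3
    obtain ⟨g, rfl⟩ := isConj_iff.mp (hcls a ha)
    have h4 : g * x * g⁻¹ * (g * d * g⁻¹) ∈ D := by simpa [mul_assoc] using h.conj hxd g
    exact h.ne_one hb (center b fun k => mem_C1.mp (gen ha (h.conj hd g) h4 hw h3 (C1 b) (mem_C1.mpr h1.symm)
      (mem_C1.mpr (h.comm_partner ha (h.conj hd g) h4 hb h1).symm) (mem_C1.mpr h2.symm) ▸ mem_top k))
  let M : Subgroup G :=
    { carrier := {g | Commute (g * x * g⁻¹) x}
      one_mem' := by simp
      mul_mem' := fun {g k} hg hk => tr (h.conj hx _) (h.conj hx g) hx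
        (by simpa [mul_assoc] using (commute_conj hk g).symm) hg
      inv_mem' := fun {g} hg => by simpa [mul_assoc] using (commute_conj hg g⁻¹).symm }
  have key : ∀ {a}, a ∈ D → ∀ g : G, a • (g : G ⧸ M) = g ↔ Commute a (g * x * g⁻¹) := fun {a} ha g => by
    have ha' : g⁻¹ * a * g ∈ D := by simpa using h.conj ha g⁻¹
    rw [smul_mk_eq_iff']
    change Commute (g⁻¹ * a * g * x * (g⁻¹ * a * g)⁻¹) x ↔ _
    rw [h.inv ha']
    refine ⟨fun hc => ?_, fun hc => ?_⟩
    · simpa [mul_assoc] using (commute_conj (h.comm_of_conj hx ha' hc.symm) g).symm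
    · have : Commute (g⁻¹ * a * g) x := by simpa [mul_assoc] using commute_conj hc g⁻¹
      exact (this.mul_left (Commute.refl x)).mul_left this
  have uniq : ∀ {a} {ω ω' : G ⧸ M}, a ∈ D → a • ω = ω → a • ω' = ω' → ω = ω' := by
    intro a ω ω' ha h1 h2
    obtain ⟨g, rfl⟩ := QuotientGroup.mk_surjective ω
    obtain ⟨k, rfl⟩ := QuotientGroup.mk_surjective ω'
    have := commute_conj (tr (h.conj hx k) ha (h.conj hx g) ((key ha k).mp h2) ((key ha g).mp h1)) g⁻¹
    exact QuotientGroup.eq.mpr (show Commute _ _ by simpa [mul_assoc] using this)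
  obtain ⟨g₀, hg₀⟩ := isConj_iff.mp (hcls z hz)
  refine Clq.false (D := D) (Ω := G ⧸ M) ⟨h, fun {a} ha => ?_, fun {a b ω} ha hb h1 => ?_, uniq, fun ω => ?_, gen,
    center, O2, fun ω => ?_⟩ (1 : G)
  · obtain ⟨g, rfl⟩ := isConj_iff.mp (hcls a ha)
    exact ⟨g, (key ha g).mpr (Commute.refl _)⟩
  · obtain ⟨g, rfl⟩ := QuotientGroup.mk_surjective ω
    rw [key ha] at h1
    rw [key hb]
    exact ⟨fun hc => tr ha (h.conj hx g) hb h1.symm hc.symm, fun hc => tr hb ha (h.conj hx g) hc h1⟩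
  · obtain ⟨g, rfl⟩ := QuotientGroup.mk_surjective ω
    exact ⟨_, h.conj hx g, _, h.conj hd g, by simpa [mul_assoc] using h.conj hxd g,
      (key (h.conj hx g) g).mpr (Commute.refl _)⟩
  · by_contra hc
    push Not at hc
    have := (key hx g₀).mp ((hc _).symm.trans (hc _))
    exact hn (hg₀ ▸ this)

/-- a four-group inside `D` centralizes `D` -/
theorem star {p : ℕ} (G : Type u) [Group G] [Finite G] : ∀ D : Set G, PT p D → ∀ x ∈ D, ∀ d ∈ D, x * d ∈ D →
    ∀ z ∈ D, Commute x z := by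
  refine card_induction (P := fun G _ _ => ∀ D : Set G, PT p D → ∀ x ∈ D, ∀ d ∈ D, x * d ∈ D →
    ∀ z ∈ D, Commute x z) (fun G _ _ ih => ?_) G
  intro D h x hx d hd hxd z hz
  by_contra hn
  have hn2 : ¬ Commute d z := fun hc => hn (h.comm_partner hd hx ((h.comm_of_mem hx hd hxd).eq ▸ hxd) hz hc.symm).symm
  have hn3 : ¬ Commute (x * d) z := fun hc => hn (h.comm_of_mul hz hx hd
    (fun e => h.ne_one hxd (e ▸ h.sq hx)) hc.symm).symm
  have quot : ∀ N : Subgroup G, N.Normal → (∀ a ∈ D, (a * z) ^ 2 ∈ N → Commute a z) → N = ⊥ := by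
    intro N _ hN
    by_contra h1
    have hm : ∀ a ∈ D, ¬ Commute a z → (a : G ⧸ N) ≠ 1 := fun a ha h2 h3 => h2 (hN a ha (by
      rw [QuotientGroup.eq_one_iff] at h3
      simpa only [sq, mul_assoc, h.inv hz] using mul_mem h3 (‹N.Normal›.conj_mem a h3 z)))
    have hm' : (z : G ⧸ N) ≠ 1 := fun h3 => hn (hN x hx (by
      rw [QuotientGroup.eq_one_iff] at h3
      simpa only [sq, mul_assoc, h.inv hx] using mul_mem (‹N.Normal›.conj_mem z h3 x) h3))
    have h' := h.map (QuotientGroup.mk' N) (QuotientGroup.mk'_surjective N)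
    have h2 := ih (G ⧸ N) (card_quotient_lt h1) _ h' _ ⟨hm x hx hn, x, hx, rfl⟩ _ ⟨hm d hd hn2, d, hd, rfl⟩
      ⟨hm _ hxd hn3, _, hxd, rfl⟩ _ ⟨hm', z, hz, rfl⟩
    refine hn (hN x hx ((QuotientGroup.eq_one_iff _).mp ?_))
    rw [sq]
    exact h'.mul_sq ⟨hm x hx hn, x, hx, rfl⟩ ⟨hm', z, hz, rfl⟩ h2
  have h' := h.cls hx
  have hs : ∀ {a}, IsConj x a → a ∈ D := fun ha => by
    obtain ⟨g, rfl⟩ := isConj_iff.mp ha; exact h.conj hx g
  have hz' := h.isConj hx hz hn
  refine star_step h' (IsConj.refl x) (hz'.trans (h.isConj hd hz hn2).symm) (hz'.trans (h.isConj hxd hz hn3).symm)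
    hz' hn (fun a ha => ha) (fun {a b w} ha hb hab hw hc K h1 h2 h3 => ?_) (fun c hc => ?_) fun N hN h2 => ?_
  · by_contra hK
    exact hc (congrArg Subtype.val (ih K (card_lt_of_ne_top hK) _ (h'.sub K) ⟨a, h1⟩ ha ⟨b, h2⟩ hb hab ⟨w, h3⟩ hw))
  · refine mem_bot.mp (quot (Subgroup.center G) inferInstance (fun a ha h1 => ?_) ▸ mem_center_iff.mpr hc)
    by_contra h2
    have := commute_of_pow (a := a) (mem_center_iff.mp h1 a) (by
      rw [h.ord_mul ha hz h2]; exact h.cop two_pos (by norm_num))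
    exact h2 (mul_left_cancel (a := a) (by rw [this.eq, mul_assoc]))
  · refine quot N hN fun a ha h1 => ?_
    by_contra h3
    obtain ⟨k, hk⟩ := pow_eq_one_of_isPGroup h2 h1
    rw [← pow_mul, ← pow_succ', ← orderOf_dvd_iff_pow_eq_one, h.ord_mul ha hz h3] at hk
    have := Nat.le_of_dvd two_pos (h.prime.dvd_of_dvd_pow hk)
    have := h.five
    omega

variable {G : Type*} [Group G] [Finite G] {p : ℕ} {D : Set G} {a b d e x y y' z w g s u : G}

namespace PT
variable (h : PT p D)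
include h

theorem comm_conj (hx : x ∈ D) (hd : d ∈ D) (hne : x ≠ d) (hc : Commute x d) (hz : z ∈ D) (h1 : ¬ Commute x z)
    (h2 : ¬ Commute d z) : Commute z (x * d * z * (x * d)) := by
  by_contra hn
  obtain ⟨c, h3, h4, h5, h6⟩ := h.exists_central hz (h.mul_sq hx hd hc) hn
  have h7 : Commute (x * d * c) (x * d) := (Commute.refl _).mul_left h5
  have e : c = x * d * (x * d * c) := by rw [← mul_assoc, h.mul_sq hx hd hc, one_mul]
  have hxc : x ∈ C1 c := mem_C1.mpr (e ▸ ((Commute.refl x).mul_right hc).mul_right (h.comm_of_mul h6 hx hd hne h7).symm)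
  have hdc : d ∈ C1 c := mem_C1.mpr (e ▸ (hc.symm.mul_right (Commute.refl d)).mul_right
    (h.comm_of_mul' h6 hx hd hne h7).symm)
  have hzc : z ∈ C1 c := mem_C1.mpr h4.symm
  have hN : zpowers c ⊲ C1 c := ⟨zpowers_le_C1 c, cent_zpowers c ▸ cent_le_norm _⟩
  obtain ⟨Q, _, _, f, hf, hk, -⟩ := hN.exists_bar
  have hker : ∀ g : C1 c, f g = 1 → (g : G) = 1 ∨ (g : G) = c := fun g hg => by
    have : (g : G) ∈ zpowers c := hk ▸ ⟨g, hg, rfl⟩
    obtain ⟨k, hk⟩ := this
    have e2 : c ^ (2 : ℤ) = 1 := by rw [zpow_two, h3]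
    rcases Int.even_or_odd' k with ⟨j, rfl | rfl⟩
    · exact Or.inl (by rw [← hk]; simp only [zpow_mul, e2, one_zpow])
    · exact Or.inr (by rw [← hk]; simp only [zpow_add, zpow_mul, e2, one_zpow, zpow_one, one_mul])
  have hc1 : f ⟨c, self_mem_C1 c⟩ = 1 := by
    have : c ∈ kerOf f := hk ▸ mem_zpowers c
    obtain ⟨g, hg, e⟩ := this
    rw [show (⟨c, self_mem_C1 c⟩ : C1 c) = g from Subtype.ext e.symm]; exact hg
  have h' := (h.sub (C1 c)).map f hf
  have mx : f ⟨x, hxc⟩ ∈ {q | q ≠ 1 ∧ ∃ d ∈ {k : C1 c | (k : G) ∈ D}, f d = q} :=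
    ⟨fun e => (hker _ e).elim (h.ne_one hx) fun e => h1 (by rw [show x = c from e]; exact h4), _, hx, rfl⟩
  have mz : f ⟨z, hzc⟩ ∈ {q | q ≠ 1 ∧ ∃ d ∈ {k : C1 c | (k : G) ∈ D}, f d = q} :=
    ⟨fun e => (hker _ e).elim (h.ne_one hz) fun e => h1 (by rw [show z = c from e]; exact mem_C1.mp hxc), _, hz, rfl⟩
  have := star Q _ h' _ mx (f ⟨d, hdc⟩)
    ⟨fun e => (hker _ e).elim (h.ne_one hd) fun e => h2 (by rw [show d = c from e]; exact h4), _, hd, rfl⟩
    ⟨fun e => ?_, ⟨x, hxc⟩ * ⟨d, hdc⟩ * ⟨c, self_mem_C1 c⟩, h6, by rw [map_mul, hc1, mul_one, map_mul]⟩ _ mz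
  · have h8 := h'.mul_sq mx mz this
    simp only [← map_mul] at h8
    refine h1 (h.comm_of_pow hx hz (j := 4) (by norm_num) le_rfl ?_)
    have e4 : (x * z) ^ 4 = x * z * (x * z) * (x * z * (x * z)) := by
      simp only [pow_succ, pow_zero, one_mul, mul_assoc]
    rcases hker _ h8 with e | e
    · rw [e4, show x * z * (x * z) = 1 from e, one_mul]
    · rw [e4, show x * z * (x * z) = c from e, h3]
  · rw [← map_mul] at e
    rcases hker _ e with e | e
    · exact hne (by rw [← h.inv hx]; exact inv_eq_of_mul_eq_one_right e)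
    · exact h.ne_one h6 (by rw [show x * d = c from e, h3])

omit h in
theorem three {t : G} (hd : d * d = 1) (hz : z * z = 1) (ht : t * t = 1) (hc : Commute d t)
    (hs : s = z * (t * z * t)) (hs2 : s * s = 1) (hst : Commute s t) (e : s * (t * d) * s = d) :
    Commute t ((d * z) ^ 3) := by
  have hd' : ∀ g, d * (d * g) = g := fun g => by rw [← mul_assoc, hd, one_mul]
  have hz' : ∀ g, z * (z * g) = g := fun g => by rw [← mul_assoc, hz, one_mul]
  have ht' : ∀ g, t * (t * g) = g := fun g => by rw [← mul_assoc, ht, one_mul]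
  have hdt : ∀ g, d * (t * (d * g)) = t * g := fun g => by rw [← mul_assoc d, hc.eq, mul_assoc, hd']
  have ha : z * t * z = s * t := by rw [hs]; simp only [mul_assoc, ht, mul_one]
  have hR : z * t * z * (d * (z * t * z) * d) = t := by
    rw [ha]
    calc s * t * (d * (s * t) * d) = s * (t * d) * s * (t * (d * 1)) := by simp only [mul_assoc, mul_one]
      _ = t := by rw [e, hdt, mul_one]
  have hdi := inv_eq_of_mul_eq_one_right hd
  have hzi := inv_eq_of_mul_eq_one_right hz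
  have e1 : z * t * z = (d * z)⁻¹ * t * (d * z) := by simp only [mul_inv_rev, hdi, hzi, mul_assoc, hdt]
  have e2 : d * (z * t * z) * d = d * z * t * (d * z)⁻¹ := by simp only [mul_inv_rev, hdi, hzi, mul_assoc]
  have e3 : z * t * z * (z * t * z) = 1 := by simp only [mul_assoc, hz', ht', hz]
  have e4 : Commute (z * t * z) t := ha ▸ hst.mul_left (Commute.refl t)
  rw [e2] at hR
  rw [e1] at hR e3 e4
  generalize d * z = r at hR e3 e4
  have h1 : r * t * r⁻¹ = r⁻¹ * t * r * t := by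
    calc r * t * r⁻¹ = r⁻¹ * t * r * (r⁻¹ * t * r) * (r * t * r⁻¹) := by rw [e3, one_mul]
      _ = _ := by rw [mul_assoc, hR]
  have h2 : t * (r * (r * t * r⁻¹) * r⁻¹) = r * t * r⁻¹ := by
    calc _ = r * (r⁻¹ * t * r * (r * t * r⁻¹)) * r⁻¹ := by group
      _ = _ := by rw [hR]
  have h3 : r * (r * t * r⁻¹) * r⁻¹ = r⁻¹ * t * r := by
    rw [← ht' (r * _ * _), h2, h1, e4.eq, ht']
  rw [show r ^ 3 = r * r * r by simp only [pow_succ, pow_zero, one_mul]]
  calc t * (r * r * r) = r * (r⁻¹ * t * r) * (r * r) := by group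
    _ = r * r * r * t := by rw [← h3]; group

theorem perp (hx : x ∈ D) (hd : d ∈ D) (hne : x ≠ d) (hc : Commute x d) (hz : z ∈ D) (h1 : ¬ Commute x z)
    (h2 : ¬ Commute d z) (hw : w ∈ D) (h3 : Commute d w) : Commute x w := by
  have ht := h.mul_sq hx hd hc
  have hzt : ¬ Commute z (x * d) := fun hh => h1 (h.comm_of_mul hz hx hd hne hh).symm
  have h4 := h.comm_conj hx hd hne hc hz h1 h2
  have hz' : x * d * z * (x * d) ∈ D := by simpa only [inv_eq_of_mul_eq_one_right ht] using h.conj hz (x * d)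
  have hs := h.mul_sq hz hz' h4
  obtain ⟨s, hsd⟩ : ∃ s, s = z * (x * d * z * (x * d)) := ⟨_, rfl⟩
  rw [← hsd] at hs
  have hst : Commute s (x * d) := by
    have e : s = (z * (x * d)) ^ 2 := by rw [hsd, _root_.sq]; simp only [mul_assoc]
    rw [e] at hs ⊢
    exact commute_of_inverts (conj_right_mul_eq_inv (h.sq hz) ht) 2 hs
  have hd1 := h.conj hx s
  have hd2 := h.conj hd s
  have e : s * x * s⁻¹ * (s * d * s⁻¹) = x * d := by
    rw [show s * x * s⁻¹ * (s * d * s⁻¹) = s * (x * d) * s⁻¹ by group, hst.eq, mul_inv_cancel_right]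
  have n0 : s * x * s⁻¹ ≠ s * d * s⁻¹ := by simpa using hne
  have n1 : s * x * s⁻¹ ≠ x := fun e1 => h1 (h.comm_of_mul hx hz hz' (fun e2 => hzt ?_) ?_)
  rotate_left
  · rw [Commute, SemiconjBy]
    conv_rhs => rw [e2]
    rw [← mul_assoc (x * d), ← mul_assoc (x * d), ht, one_mul]
  · rw [mul_inv_eq_iff_eq_mul] at e1; exact hsd ▸ e1.symm
  have n2 : s * x * s⁻¹ ≠ d := fun e1 => by
    have k1 := three (h.sq hd) (h.sq hz) ht (hc.symm.mul_right (Commute.refl d)) hsd hs hst (by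
      rw [mul_assoc x, h.sq hd, mul_one, ← mul_left_inj s⁻¹, mul_inv_cancel_right, ← e1, mul_assoc,
        mul_assoc, ← mul_inv_rev, hs, inv_one, mul_one])
    have k2 := commute_of_pow k1 (by rw [h.ord_mul hd hz h2]; exact h.cop (by norm_num) (by norm_num))
    exact hzt (by simpa only [h.sq' hd] using ((hc.mul_left (Commute.refl d)).mul_right k2).symm)
  generalize s * x * s⁻¹ = a at hd1 e n0 n1 n2
  generalize s * d * s⁻¹ = b at hd2 e n0
  have hab : Commute a b := by
    have : (a * b)⁻¹ = a * b := by rw [e, inv_eq_of_mul_eq_one_right ht]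
    rw [mul_inv_rev, h.inv hd1, h.inv hd2] at this
    exact this.symm
  have hat : Commute a (x * d) := e ▸ (Commute.refl a).mul_right hab
  have hbt : Commute b (x * d) := e ▸ hab.symm.mul_right (Commute.refl b)
  have hax := h.comm_of_mul hd1 hx hd hne hat
  have had := h.comm_of_mul' hd1 hx hd hne hat
  have hbx := h.comm_of_mul hd2 hx hd hne hbt
  have eb : b = a * (x * d) := by rw [← e, h.sq' hd1]
  by_contra h5
  have h6 : ¬ Commute a w := fun hh => h5 (h.comm_of_mul hw hx hd2 (fun e1 => n2 ?_) ?_).symm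
  rotate_left
  · rw [← e1, hc.eq] at e; exact mul_right_cancel e
  · rw [show x * b = a * d by rw [eb, ← mul_assoc, ← hax.eq, mul_assoc, h.sq' hx]]
    exact hh.symm.mul_right h3.symm
  have h7 : ¬ Commute b w := fun hh => h5 (h.comm_of_mul hw hx hd1 n1.symm ?_).symm
  rotate_left
  · rw [show x * a = b * d by rw [eb, mul_assoc, mul_assoc, h.sq hd, mul_one, hax.eq]]
    exact hh.symm.mul_right h3.symm
  have h8 := h.comm_conj hd1 hd2 n0 hab hw h6 h7
  rw [e, mul_assoc x, h3.eq, hc.eq, mul_assoc, mul_assoc, h.sq' hd, ← mul_assoc] at h8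
  exact h5 (h.comm_of_conj hw hx h8).symm

theorem no_comm (hcls : ∀ a ∈ D, ∀ b ∈ D, IsConj a b) (hgen : closure D = ⊤)
    (O2 : ∀ N : Subgroup G, N.Normal → IsPGroup 2 N → N = ⊥) (hx : x ∈ D) (hd : d ∈ D) (hc : Commute x d) :
    x = d := by
  have tr : ∀ x ∈ D, ∀ d ∈ D, Commute x d → ∀ w ∈ D, Commute x w ↔ Commute d w := by
    intro x hx
    let Δ : Set G := {w | w ∈ D ∧ (¬ Commute x w ∨ ∀ v ∈ D, Commute x v ↔ Commute w v)}
    have adj : ∀ w ∈ Δ, ∀ v ∈ D, ¬ Commute w v → v ∈ Δ := by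
      rintro w ⟨hw, h1⟩ v hv h2
      refine ⟨hv, ?_⟩
      by_cases h3 : Commute x v
      · rcases eq_or_ne x v with rfl | hne
        · exact Or.inr fun _ _ => Iff.rfl
        have h4 : ¬ Commute x w := h1.elim id fun h5 => absurd ((h5 v hv).mp h3) h2
        exact Or.inr fun u hu => ⟨h.perp hv hx hne.symm h3.symm hw (fun e => h2 e.symm) h4 hu,
          h.perp hx hv hne h3 hw h4 (fun e => h2 e.symm) hu⟩
      · exact Or.inl h3
    have inv : ∀ g : G, ∀ w ∈ Δ, g * w * g⁻¹ ∈ Δ := fun g => by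
      have hg : g ∈ closure D := hgen ▸ mem_top g
      induction hg using closure_induction_left with
      | one => simp
      | mul_left y hy g _ ih =>
        intro w hw
        have h1 := ih w hw
        rw [show y * g * w * (y * g)⁻¹ = y * (g * w * g⁻¹) * y⁻¹ by group, h.inv hy]
        by_cases h2 : Commute (g * w * g⁻¹) y
        · rwa [← h2.eq, mul_assoc, h.sq hy, mul_one]
        · exact adj _ h1 _ (h.conj' h1.1 hy) fun e => h2 (h.comm_of_conj h1.1 hy e)
      | inv_mul_cancel y hy g _ ih =>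
        intro w hw
        have h1 := ih w hw
        rw [h.inv hy, show y * g * w * (y * g)⁻¹ = y * (g * w * g⁻¹) * y⁻¹ by group, h.inv hy]
        by_cases h2 : Commute (g * w * g⁻¹) y
        · rwa [← h2.eq, mul_assoc, h.sq hy, mul_one]
        · exact adj _ h1 _ (h.conj' h1.1 hy) fun e => h2 (h.comm_of_conj h1.1 hy e)
    intro d hd hc
    obtain ⟨g, rfl⟩ := isConj_iff.mp (hcls x hx d hd)
    exact (inv g x ⟨hx, Or.inr fun _ _ => Iff.rfl⟩).2.resolve_left (not_not.mpr hc)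
  by_contra hne
  have key : ∀ x ∈ D, ∀ d ∈ D, x ≠ d → Commute x d → ∀ z ∈ D, Commute z (x * d * z * (x * d)) := by
    intro x hx d hd hne hc z hz
    by_cases h1 : Commute x z
    · have h2 := (tr x hx d hd hc z hz).mp h1
      exact ((h1.mul_left h2).symm.mul_right (Commute.refl z)).mul_right (h1.mul_left h2).symm
    · exact h.comm_conj hx hd hne hc hz h1 fun e => h1 ((tr x hx d hd hc z hz).mpr e)
  have ht := h.mul_sq hx hd hc
  obtain ⟨N, hN, h2, hm⟩ := baer_suzuki_elt (p := 2) (x * d) fun g => by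
    have e : g * (x * d) * g⁻¹ = g * x * g⁻¹ * (g * d * g⁻¹) := by group
    have ht' := h.mul_sq (h.conj hx g) (h.conj hd g) (commute_conj hc g)
    have k := key _ (h.conj hx g) _ (h.conj hd g) (by simpa using hne) (commute_conj hc g)
    rw [← e] at ht' k
    generalize g * (x * d) * g⁻¹ = t at ht' k
    have hm : ∀ {z}, z ∈ D → t * z * t ∈ D := fun {z} hz => by
      simpa only [inv_eq_of_mul_eq_one_right ht'] using h.conj hz t
    have c1 := k x hx
    have c2 := (tr x hx d hd hc _ (hm hx)).mp c1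
    have c3 := k d hd
    have c4 := (tr x hx d hd hc _ (hm hd)).mpr c3
    have c5 := (tr x hx _ (hm hx) c1 _ (hm hd)).mp c4
    refine isPGroup_closure_pair ht ht' (k := 2) ?_
    have e2 : (x * d * t) ^ 2 = x * d * (t * x * t * (t * d * t)) := by
      simp only [_root_.sq, mul_assoc]; rw [← mul_assoc t t, ht', one_mul]
    rw [show 2 ^ 2 = 2 * 2 from rfl, pow_mul, e2,
      ((c1.mul_left c2).mul_right (c4.mul_left c3)).mul_pow, _root_.sq, _root_.sq, ht, h.mul_sq (hm hx) (hm hd) c5,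
      one_mul]
  rw [O2 N hN h2, mem_bot] at hm
  exact hne (by rw [← h.inv hx]; exact inv_eq_of_mul_eq_one_right hm)

end PT

end Cfsg.Agent.FT.Cons
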